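import Mathlib
import Cfsg.Prelude.Def_OddOrderLocal
import Cfsg.Agent.Lib.Helper23.BenderMax2
import Cfsg.Agent.Lib.Helper23.Transitivity3
import Cfsg.Agent.Lib.Helper24.PRank

/-!
Basic tools for the Uniqueness Theorem chain (Bender–Glauberman, Section 9) — helper61.
Uniqueness subgroups, ambient Sylow subgroups, Frattini argument.
-/

set_option autoImplicit false

namespace Cfsg.Agent.Lib.Helper61

open Cfsg
open scoped Pointwise

universe u

variable {G : Type u} [Group G]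

/-! ### Uniqueness subgroups -/

theorem bg_exists_isCoatom_ge [Finite G] {K : Subgroup G} (hK : K ≠ ⊤) :
    ∃ M : Subgroup G, IsCoatom M ∧ K ≤ M :=
  (eq_top_or_exists_le_coatom K).resolve_left hK

theorem bg_unique_of_le {L K M : Subgroup G} (hL : InUniqueMaximal L) (hLK : L ≤ K)
    (hM : IsCoatom M) (hKM : K ≤ M) : InUniqueMaximal K := by
  obtain ⟨M₀, ⟨hM₀, hLM₀⟩, huniq⟩ := hL
  have h1 : M = M₀ := huniq M ⟨hM, hLK.trans hKM⟩
  subst h1
  exact ⟨M, ⟨hM, hKM⟩, fun M' hM' => huniq M' ⟨hM'.1, hLK.trans hM'.2⟩⟩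

theorem bg_unique_of_le' [Finite G] {L K : Subgroup G} (hL : InUniqueMaximal L) (hLK : L ≤ K)
    (hK : K ≠ ⊤) : InUniqueMaximal K := by
  obtain ⟨M, hM, hKM⟩ := bg_exists_isCoatom_ge hK
  exact bg_unique_of_le hL hLK hM hKM

theorem bg_unique_eq {L M M' : Subgroup G} (hL : InUniqueMaximal L) (hM : IsCoatom M)
    (hLM : L ≤ M) (hM' : IsCoatom M') (hLM' : L ≤ M') : M = M' :=
  hL.unique ⟨hM, hLM⟩ ⟨hM', hLM'⟩

theorem bg_isCoatom_mapConj {M : Subgroup G} (hM : IsCoatom M) (g : G) :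
    IsCoatom (M.map (MulAut.conj g).toMonoidHom) := by
  have h := (OrderIso.isCoatom_iff (MulEquiv.mapSubgroup (MulAut.conj g)) M).mpr hM
  exact h

theorem bg_unique_mapConj {L : Subgroup G} (hL : InUniqueMaximal L) (g : G) :
    InUniqueMaximal (L.map (MulAut.conj g).toMonoidHom) := by
  obtain ⟨M₀, ⟨hM₀, hLM₀⟩, huniq⟩ := hL
  refine ⟨M₀.map (MulAut.conj g).toMonoidHom, ⟨bg_isCoatom_mapConj hM₀ g,
    Subgroup.map_mono hLM₀⟩, ?_⟩
  rintro M' ⟨hM', hLM'⟩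
  have h1 : L ≤ M'.map (MulAut.conj g⁻¹).toMonoidHom := by
    have := Subgroup.map_mono (f := (MulAut.conj g⁻¹).toMonoidHom) hLM'
    rwa [Cfsg.Agent.Lib.Helper23.mapConj_mul, inv_mul_cancel,
      Cfsg.Agent.Lib.Helper23.mapConj_one] at this
  have h2 := huniq _ ⟨bg_isCoatom_mapConj hM' g⁻¹, h1⟩
  rw [← h2, Cfsg.Agent.Lib.Helper23.mapConj_mul, mul_inv_cancel,
    Cfsg.Agent.Lib.Helper23.mapConj_one]

theorem bg_pRankLE_of_injective {p m : ℕ} {G₁ G₂ : Type*} [Group G₁] [Group G₂] (f : G₂ →* G₁)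
    (hf : Function.Injective f) (h : PRankLE p m G₁) : PRankLE p m G₂ := by
  intro A hAc hAp
  have hc : IsMulCommutative (A.map f) := by
    refine ⟨⟨?_⟩⟩
    rintro ⟨_, a, ha, rfl⟩ ⟨_, b, hb, rfl⟩
    apply Subtype.ext
    have := hAc.is_comm.comm (⟨a, ha⟩ : A) ⟨b, hb⟩
    have h2 : a * b = b * a := congrArg Subtype.val this
    change f a * f b = f b * f a
    rw [← map_mul, ← map_mul, h2]
  have := h (A.map f) hc (by
    rintro _ ⟨a, ha, rfl⟩
    rw [← map_pow, hAp a ha, map_one])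
  rwa [Subgroup.card_map_of_injective hf] at this

/-! ### Simple groups -/

theorem bg_normalizer_ne_top (hs : IsSimpleGroup G) {T : Subgroup G} (hT1 : T ≠ ⊥)
    (hT2 : T ≠ ⊤) : Subgroup.normalizer (T : Set G) ≠ ⊤ := by
  intro htop
  have hTn : T.Normal := Subgroup.normalizer_eq_top_iff.mp htop
  rcases hTn.eq_bot_or_eq_top with h | h
  · exact hT1 h
  · exact hT2 h

theorem bg_centralizer_ne_top (hs : IsSimpleGroup G) (hnc : ¬ IsMulCommutative G)
    {T : Subgroup G} (hT1 : T ≠ ⊥) : Subgroup.centralizer (T : Set G) ≠ ⊤ := by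
  intro htop
  have hTc : T ≤ Subgroup.center G := by
    intro t ht
    rw [Subgroup.mem_center_iff]
    intro g
    have hg : g ∈ Subgroup.centralizer (T : Set G) := by rw [htop]; exact Subgroup.mem_top g
    exact (Subgroup.mem_centralizer_iff.mp hg t ht).symm
  rcases (inferInstance : (Subgroup.center G).Normal).eq_bot_or_eq_top with h | h
  · rw [h] at hTc
    exact hT1 (le_bot_iff.mp hTc)
  · apply hnc
    refine ⟨⟨fun a b => ?_⟩⟩
    have ha : a ∈ Subgroup.center G := by rw [h]; exact Subgroup.mem_top a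
    exact (Subgroup.mem_center_iff.mp ha b).symm

theorem bg_le_of_isCoatom {H M : Subgroup G} (hH : IsCoatom H) (hM : IsCoatom M)
    (h : H ≤ M) : H = M := by
  by_contra hne
  exact hM.1 (hH.2 M (lt_of_le_of_ne h hne))

/-! ### Conjugation -/

theorem bg_mem_normalizer_mapConj {Q : Subgroup G} {g x : G}
    (h : g⁻¹ * x * g ∈ Subgroup.normalizer (Q : Set G)) :
    x ∈ Subgroup.normalizer ((Q.map (MulAut.conj g).toMonoidHom : Subgroup G) : Set G) := by
  rw [Subgroup.mem_normalizer_iff] at h ⊢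
  intro y
  rw [Cfsg.Agent.Lib.Helper23.mem_mapConj, Cfsg.Agent.Lib.Helper23.mem_mapConj, h (g⁻¹ * y * g)]
  have e : g⁻¹ * x * g * (g⁻¹ * y * g) * (g⁻¹ * x * g)⁻¹ = g⁻¹ * (x * y * x⁻¹) * g := by group
  rw [e]

theorem bg_mem_normalizer_of_mapConj_le [Finite G] {Q : Subgroup G} {g : G}
    (h : Q.map (MulAut.conj g).toMonoidHom ≤ Q) : g ∈ Subgroup.normalizer (Q : Set G) := by
  apply Cfsg.Agent.Lib.Helper23.mem_normalizer_of_mapConj_eq
  apply Subgroup.eq_of_le_of_card_ge h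
  rw [Cfsg.Agent.Lib.Helper23.card_mapConj]

theorem bg_isPGroup_mapConj {p : ℕ} {Q : Subgroup G} (hQ : IsPGroup p Q) (g : G) :
    IsPGroup p (Q.map (MulAut.conj g).toMonoidHom) :=
  hQ.map _

/-! ### Ambient Sylow subgroups -/

/-- `R` is a Sylow `p`-subgroup of the subgroup `L`, in ambient form: a maximal `p`-subgroup
of `L`. -/
def IsSylIn (p : ℕ) (R L : Subgroup G) : Prop :=
  R ≤ L ∧ IsPGroup p R ∧ ∀ Q : Subgroup G, IsPGroup p Q → R ≤ Q → Q ≤ L → Q = R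

theorem isSylIn_of_sylow {p : ℕ} (L : Subgroup G) (S : Sylow p ↥L) :
    IsSylIn p ((S : Subgroup ↥L).map L.subtype) L := by
  refine ⟨Subgroup.map_subtype_le _, S.isPGroup'.map _, ?_⟩
  intro Q hQ hSQ hQL
  have h1 : (S : Subgroup ↥L) ≤ Q.subgroupOf L := by
    intro x hx
    rw [Subgroup.mem_subgroupOf]
    exact hSQ ⟨x, hx, rfl⟩
  have h2 : IsPGroup p (Q.subgroupOf L) := hQ.comap_of_injective L.subtype L.subtype_injective
  have h3 := S.is_maximal' h2 h1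
  rw [← h3]
  exact (Subgroup.map_subgroupOf_eq_of_le hQL).symm

theorem IsSylIn.exists_sylow {p : ℕ} {R L : Subgroup G} (h : IsSylIn p R L) :
    ∃ S : Sylow p ↥L, (S : Subgroup ↥L).map L.subtype = R := by
  obtain ⟨hRL, hR, hmax⟩ := h
  refine ⟨⟨R.subgroupOf L, hR.comap_of_injective L.subtype L.subtype_injective, ?_⟩,
    Subgroup.map_subgroupOf_eq_of_le hRL⟩
  intro Q hQ hle
  have h1 : R ≤ Q.map L.subtype := by
    intro x hx
    exact ⟨⟨x, hRL hx⟩, hle (Subgroup.mem_subgroupOf.mpr hx), rfl⟩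
  have h2 := hmax (Q.map L.subtype) (hQ.map _) h1 (Subgroup.map_subtype_le _)
  rw [← h2]
  ext x
  rw [Subgroup.mem_subgroupOf]
  constructor
  · intro hx
    exact ⟨x, hx, rfl⟩
  · rintro ⟨y, hy, hyx⟩
    have : y = x := Subtype.ext hyx
    rwa [← this]

theorem exists_isSylIn_ge [Finite G] {p : ℕ} [Fact p.Prime] {X L : Subgroup G}
    (hX : IsPGroup p X) (hXL : X ≤ L) : ∃ R : Subgroup G, X ≤ R ∧ IsSylIn p R L := by
  have h1 : IsPGroup p (X.subgroupOf L) := hX.comap_of_injective L.subtype L.subtype_injective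
  obtain ⟨S, hS⟩ := h1.exists_le_sylow
  refine ⟨(S : Subgroup ↥L).map L.subtype, ?_, isSylIn_of_sylow L S⟩
  intro x hx
  exact ⟨⟨x, hXL hx⟩, hS (Subgroup.mem_subgroupOf.mpr hx), rfl⟩

theorem IsSylIn.card [Finite G] {p : ℕ} [Fact p.Prime] {R L : Subgroup G} (h : IsSylIn p R L) :
    Nat.card R = p ^ (Nat.card L).factorization p := by
  obtain ⟨S, rfl⟩ := h.exists_sylow
  rw [Subgroup.card_map_of_injective L.subtype_injective]
  exact S.card_eq_multiplicity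

theorem IsSylIn.mono {p : ℕ} {R L L' : Subgroup G} (h : IsSylIn p R L) (hRL' : R ≤ L')
    (hL'L : L' ≤ L) : IsSylIn p R L' :=
  ⟨hRL', h.2.1, fun Q hQ hRQ hQL' => h.2.2 Q hQ hRQ (hQL'.trans hL'L)⟩

theorem IsSylIn.le_of_normalized {p : ℕ} {R L Q : Subgroup G} (h : IsSylIn p R L)
    (hQ : IsPGroup p Q) (hQL : Q ≤ L) (hRQ : R ≤ Subgroup.normalizer (Q : Set G)) : Q ≤ R := by
  have h1 : IsPGroup p (R ⊔ Q : Subgroup G) := IsPGroup.to_sup_of_normal_right' h.2.1 hQ hRQ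
  have h2 := h.2.2 (R ⊔ Q) h1 le_sup_left (sup_le h.1 hQL)
  rw [← h2]
  exact le_sup_right

theorem IsSylIn.mapConj {p : ℕ} {R L : Subgroup G} (h : IsSylIn p R L) (g : G) :
    IsSylIn p (R.map (MulAut.conj g).toMonoidHom) (L.map (MulAut.conj g).toMonoidHom) := by
  refine ⟨Subgroup.map_mono h.1, h.2.1.map _, ?_⟩
  intro Q hQ hRQ hQL
  have h1 : R ≤ Q.map (MulAut.conj g⁻¹).toMonoidHom := by
    have := Subgroup.map_mono (f := (MulAut.conj g⁻¹).toMonoidHom) hRQ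
    rwa [Cfsg.Agent.Lib.Helper23.mapConj_mul, inv_mul_cancel,
      Cfsg.Agent.Lib.Helper23.mapConj_one] at this
  have h2 : Q.map (MulAut.conj g⁻¹).toMonoidHom ≤ L := by
    have := Subgroup.map_mono (f := (MulAut.conj g⁻¹).toMonoidHom) hQL
    rwa [Cfsg.Agent.Lib.Helper23.mapConj_mul, inv_mul_cancel,
      Cfsg.Agent.Lib.Helper23.mapConj_one] at this
  have h3 := h.2.2 _ (hQ.map _) h1 h2
  rw [← h3, Cfsg.Agent.Lib.Helper23.mapConj_mul, mul_inv_cancel,
    Cfsg.Agent.Lib.Helper23.mapConj_one]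

theorem bg_map_conj_smul (L : Subgroup G) (g : ↥L) (X : Subgroup ↥L) :
    (MulAut.conj g • X).map L.subtype =
      (X.map L.subtype).map (MulAut.conj (g : G)).toMonoidHom := by
  ext x
  constructor
  · rintro ⟨y, hy, rfl⟩
    obtain ⟨z, hz, rfl⟩ := (Subgroup.mem_smul_pointwise_iff_exists _ _ _).mp hy
    exact ⟨(z : G), ⟨z, hz, rfl⟩, rfl⟩
  · rintro ⟨_, ⟨z, hz, rfl⟩, rfl⟩
    exact ⟨MulAut.conj g z, (Subgroup.mem_smul_pointwise_iff_exists _ _ _).mpr ⟨z, hz, rfl⟩, rfl⟩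

theorem IsSylIn.exists_conj [Finite G] {p : ℕ} [Fact p.Prime] {R R' L : Subgroup G}
    (h : IsSylIn p R L) (h' : IsSylIn p R' L) :
    ∃ n ∈ L, R' = R.map (MulAut.conj n).toMonoidHom := by
  obtain ⟨S, rfl⟩ := h.exists_sylow
  obtain ⟨S', rfl⟩ := h'.exists_sylow
  obtain ⟨g, hg⟩ := MulAction.exists_smul_eq ↥L S S'
  refine ⟨(g : G), g.2, ?_⟩
  rw [← bg_map_conj_smul, ← hg]
  rfl

/-- Frattini argument, ambient form. -/
theorem bg_frattini [Finite G] {p : ℕ} [Fact p.Prime] {R N : Subgroup G} (hR : IsSylIn p R N)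
    {h : G} (hh : h ∈ Subgroup.normalizer (N : Set G)) :
    ∃ n ∈ N, n⁻¹ * h ∈ Subgroup.normalizer (R : Set G) := by
  have h1 : IsSylIn p (R.map (MulAut.conj h).toMonoidHom) N := by
    have := hR.mapConj h
    rwa [Cfsg.Agent.Lib.Helper23.mapConj_eq_of_mem_normalizer hh] at this
  obtain ⟨n, hn, hconj⟩ := hR.exists_conj h1
  refine ⟨n, hn, ?_⟩
  apply Cfsg.Agent.Lib.Helper23.mem_normalizer_of_mapConj_eq
  rw [← Cfsg.Agent.Lib.Helper23.mapConj_mul, hconj, Cfsg.Agent.Lib.Helper23.mapConj_mul,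
    inv_mul_cancel, Cfsg.Agent.Lib.Helper23.mapConj_one]

theorem IsSylIn.card_le [Finite G] {p : ℕ} [Fact p.Prime] {R L Q : Subgroup G}
    (h : IsSylIn p R L) (hQ : IsPGroup p Q) (hQL : Q ≤ L) : Nat.card Q ≤ Nat.card R := by
  obtain ⟨Q', hQQ', hQ'⟩ := exists_isSylIn_ge hQ hQL
  rw [h.card, ← hQ'.card]
  exact Subgroup.card_le_of_le hQQ'

end Cfsg.Agent.Lib.Helper61
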