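import Mathlib
import Cfsg.Agent.S1281
import Cfsg.Agent.S1285
import Cfsg.Agent.S1331

/-!
Local completeness of signalizer functors (helper61).

`signalizer_closure_complete`: if `θ` is an `A`-signalizer functor, `A` elementary abelian of rank
at least 3, and the closure `⟨θ a : a ∈ A, a ≠ 1⟩` is a solvable group of order prime to `p`, then
the closure `W` satisfies `W ⊓ C_G(a) ≤ θ a` for all non-identity `a ∈ A` (so `θ` is complete).
-/

set_option autoImplicit false

namespace Cfsg.Agent.Lib.Helper61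

open Cfsg
open scoped commutatorElement

universe u

section basic

variable {G : Type*} [Group G]

theorem lc_conj_mem_iSup {ι : Sort*} (H : ι → Subgroup G) (y : G)
    (h : ∀ i, ∀ x ∈ H i, y * x * y⁻¹ ∈ H i) :
    ∀ u ∈ ⨆ i, H i, y * u * y⁻¹ ∈ ⨆ i, H i := by
  intro u hu
  have h1 : (⨆ i, H i).map (MulAut.conj y).toMonoidHom ≤ ⨆ i, H i := by
    rw [Subgroup.map_iSup]
    refine iSup_le fun i => ?_
    refine le_trans ?_ (le_iSup H i)
    rintro _ ⟨x, hx, rfl⟩
    exact h i x hx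
  exact h1 ⟨u, hu, rfl⟩

theorem lc_theta_le_closure {A : Subgroup G} {θ : G → Subgroup G} {a : G} (ha : a ∈ A)
    (ha1 : a ≠ 1) : θ a ≤ signalizerClosure A θ :=
  le_iSup (fun a : {a : G // a ∈ A ∧ a ≠ 1} => θ (a : G)) ⟨a, ha, ha1⟩

theorem lc_closure_conj_mem {p : ℕ} {A : Subgroup G} {θ : G → Subgroup G}
    (hθ : IsSignalizerFunctor p A θ) :
    ∀ b ∈ A, ∀ x ∈ signalizerClosure A θ, b * x * b⁻¹ ∈ signalizerClosure A θ := by
  intro b hb
  exact lc_conj_mem_iSup _ b (fun i x hx => hθ.2.2.1 i.1 i.2.1 i.2.2 b hb x hx)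

theorem lc_solvable {p : ℕ} {A : Subgroup G} {θ : G → Subgroup G}
    (hθ : IsSignalizerFunctor p A θ) (hWs : Group.IsSolvable (signalizerClosure A θ)) :
    IsSolvableSignalizerFunctor p A θ :=
  ⟨hθ, fun _ ha ha1 => Group.isSolvable_of_isSolvable_injective
    (Subgroup.inclusion_injective (lc_theta_le_closure ha ha1))⟩

/-- A nontrivial solvable normal subgroup `W` has a proper subgroup `V`, normal in `G`, with
`W / V` of prime exponent. -/
theorem lc_exists_normal_pow_mem [Finite G] (W : Subgroup G) [W.Normal]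
    (hWs : Group.IsSolvable W) (hW : W ≠ ⊥) :
    ∃ r : ℕ, r.Prime ∧ ∃ V : Subgroup G, V.Normal ∧ V ≤ W ∧ V ≠ W ∧ ∀ w ∈ W, w ^ r ∈ V := by
  classical
  have : Nontrivial W := (Subgroup.nontrivial_iff_ne_bot W).mpr hW
  have hlt : commutator W < ⊤ := Group.IsSolvable.commutator_lt_top_of_nontrivial W
  have hcard : Nat.card (Abelianization W) ≠ 1 := by
    intro h1
    have h2 : (commutator W).index = 1 := by
      rw [Subgroup.index_eq_card]; exact h1
    exact hlt.ne (Subgroup.index_eq_one.mp h2)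
  set r := (Nat.card (Abelianization W)).minFac with hr
  have hrp : r.Prime := Nat.minFac_prime hcard
  have : Fact r.Prime := ⟨hrp⟩
  have hrdvd : r ∣ Nat.card (Abelianization W) := Nat.minFac_dvd _
  obtain ⟨q, hq⟩ := exists_prime_orderOf_dvd_card' r hrdvd
  let g : Abelianization W →* Abelianization W := powMonoidHom r
  have hginj : ¬ Function.Injective g := by
    intro hinj
    have h1 : g q = g 1 := by
      simp only [g, powMonoidHom_apply, one_pow]
      rw [← hq]; exact pow_orderOf_eq_one q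
    have h2 : q = 1 := hinj h1
    rw [h2, orderOf_one] at hq
    exact hrp.one_lt.ne hq
  have hgsurj : ¬ Function.Surjective g := fun hs => hginj (Finite.injective_iff_surjective.mpr hs)
  have hrange : g.range ≠ ⊤ := fun h => hgsurj (MonoidHom.range_eq_top.mp h)
  let f : W →* Abelianization W := Abelianization.of
  refine ⟨r, hrp, ⁅W, W⁆ ⊔ Subgroup.normalClosure {x | ∃ w ∈ W, x = w ^ r}, inferInstance, ?_, ?_, ?_⟩
  · refine sup_le (Subgroup.commutator_le_right W W) (Subgroup.normalClosure_le_normal ?_)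
    rintro _ ⟨w, hw, rfl⟩
    exact pow_mem hw r
  · intro hVW
    have hV1 : ⁅W, W⁆ ⊔ Subgroup.normalClosure {x | ∃ w ∈ W, x = w ^ r} ≤
        (g.range.comap f).map W.subtype := by
      refine sup_le ?_ ?_
      · rw [Subgroup.commutator_le]
        intro g₁ h₁ g₂ h₂
        refine ⟨⁅(⟨g₁, h₁⟩ : W), ⟨g₂, h₂⟩⁆, ?_, rfl⟩
        rw [SetLike.mem_coe, Subgroup.mem_comap, map_commutatorElement,
          commutatorElement_eq_one_iff_commute.mpr (Commute.all _ _)]
        exact one_mem _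
      · rw [Subgroup.normalClosure]
        rw [Subgroup.closure_le]
        intro x hx
        rw [Group.mem_conjugatesOfSet_iff] at hx
        obtain ⟨s, ⟨w, hw, rfl⟩, hconj⟩ := hx
        obtain ⟨c, hc⟩ := isConj_iff.mp hconj
        have hcw : c * w * c⁻¹ ∈ W := ‹W.Normal›.conj_mem w hw c
        refine ⟨(⟨c * w * c⁻¹, hcw⟩ : W) ^ r, ?_, ?_⟩
        · rw [SetLike.mem_coe, Subgroup.mem_comap, map_pow]
          exact ⟨f ⟨c * w * c⁻¹, hcw⟩, rfl⟩
        · rw [← hc]
          simp [conj_pow]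
    have hV2 : (g.range.comap f) = ⊤ := by
      rw [eq_top_iff]
      intro w _
      have h1 : (w : G) ∈ (g.range.comap f).map W.subtype := hV1 (by rw [hVW]; exact w.2)
      obtain ⟨t, ht, hte⟩ := h1
      have : t = w := Subtype.ext hte
      rw [← this]; exact ht
    apply hrange
    rw [eq_top_iff]
    intro x _
    obtain ⟨w, rfl⟩ := QuotientGroup.mk_surjective x
    have h3 : w ∈ g.range.comap f := by rw [hV2]; exact Subgroup.mem_top w
    exact h3
  · intro w hw
    exact (le_sup_right : _ ≤ ⁅W, W⁆ ⊔ Subgroup.normalClosure {x | ∃ w ∈ W, x = w ^ r})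
      (Subgroup.subset_normalClosure ⟨w, hw, rfl⟩)

theorem lc_pow_le_card_of_relIndex {p k : ℕ} (hp : 0 < p) {D E : Subgroup G} (hDE : D ≤ E)
    (hidx : D.relIndex E ≤ p) (hE : p ^ (k + 1) ≤ Nat.card E) : p ^ k ≤ Nat.card D := by
  have h4 : Nat.card (D.subgroupOf E) * (D.subgroupOf E).index = Nat.card E :=
    Subgroup.card_mul_index _
  have h5 : Nat.card (D.subgroupOf E) = Nat.card D :=
    Nat.card_congr (Subgroup.subgroupOfEquivOfLe hDE).toEquiv
  have h6 : (D.subgroupOf E).index ≤ p := hidx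
  rw [h5] at h4
  have h7 : p ^ k * p ≤ Nat.card D * p := by
    calc p ^ k * p = p ^ (k + 1) := (pow_succ p k).symm
      _ ≤ Nat.card E := hE
      _ = Nat.card D * (D.subgroupOf E).index := h4.symm
      _ ≤ Nat.card D * p := Nat.mul_le_mul_left _ h6
  exact Nat.le_of_mul_le_mul_right h7 hp

theorem lc_exists_ne_one [Finite G] {p : ℕ} (hp : p.Prime) {E : Subgroup G}
    (hE : p ^ 1 ≤ Nat.card E) : ∃ d ∈ E, d ≠ 1 := by
  by_contra hcon
  push Not at hcon
  have h1 : E = ⊥ := (Subgroup.eq_bot_iff_forall E).mpr hcon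
  rw [h1, Subgroup.card_bot, pow_one] at hE
  exact absurd hE (not_le.mpr hp.one_lt)

end basic

/-- The statement proved by induction on the order of the closure. -/
def LCProp (n : ℕ) : Prop :=
  ∀ (G : Type u) [Group G] [Finite G] (p : ℕ) [Fact p.Prime] (A : Subgroup G),
    IsElementaryAbelian p A → p ^ 3 ≤ Nat.card A → ∀ θ : G → Subgroup G,
    IsSignalizerFunctor p A θ → Group.IsSolvable (signalizerClosure A θ) →
    ¬ p ∣ Nat.card (signalizerClosure A θ) → Nat.card (signalizerClosure A θ) = n →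
    ∀ a ∈ A, a ≠ 1 → signalizerClosure A θ ⊓ Subgroup.centralizer {a} ≤ θ a

theorem lc_quotient (n : ℕ) (IH : ∀ m < n, LCProp.{u} m) {G : Type u} [Group G] [Finite G]
    (p : ℕ) [Fact p.Prime] (A : Subgroup G) (hA : IsElementaryAbelian p A)
    (hA3 : p ^ 3 ≤ Nat.card A) (θ : G → Subgroup G) (hθ : IsSignalizerFunctor p A θ)
    (hWs : Group.IsSolvable (signalizerClosure A θ))
    (hWp : ¬ p ∣ Nat.card (signalizerClosure A θ)) (hn : Nat.card (signalizerClosure A θ) = n)
    (N : Subgroup G) [N.Normal] (hNW : N ≤ signalizerClosure A θ) (hN : N ≠ ⊥) :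
    ∀ a ∈ A, a ≠ 1 → ∀ x ∈ signalizerClosure A θ ⊓ Subgroup.centralizer {a},
      ∃ t ∈ θ a, t⁻¹ * x ∈ N := by
  classical
  have hp : p.Prime := Fact.out
  have hθs := lc_solvable hθ hWs
  have hNp : ¬ p ∣ Nat.card N := fun h => hWp (h.trans (Subgroup.card_dvd_of_le hNW))
  set π := QuotientGroup.mk' N with hπ
  have hAN : ∀ a ∈ A, π a = 1 → a = 1 := by
    intro a ha h1
    by_contra hne
    have haN : a ∈ N := (QuotientGroup.eq_one_iff a).mp h1
    have ho : orderOf a = p := orderOf_eq_prime (hA.2 a ha) hne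
    have h2 : orderOf (⟨a, haN⟩ : N) ∣ Nat.card N := orderOf_dvd_natCard _
    rw [Subgroup.orderOf_mk, ho] at h2
    exact hNp h2
  have hinj : ∀ a ∈ A, ∀ b ∈ A, π a = π b → a = b := by
    intro a ha b hb h
    have h1 : π (a * b⁻¹) = 1 := by rw [map_mul, map_inv, h, mul_inv_cancel]
    have h2 := hAN _ (A.mul_mem ha (A.inv_mem hb)) h1
    exact mul_inv_eq_one.mp h2
  let θ' : G ⧸ N → Subgroup (G ⧸ N) := fun x =>
    ⨆ a : {a : G // a ∈ A ∧ a ≠ 1 ∧ π a = x}, (θ (a : G)).map π
  have hθ'eq : ∀ a ∈ A, a ≠ 1 → θ' (π a) = (θ a).map π := by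
    intro a ha ha1
    apply le_antisymm
    · refine iSup_le ?_
      rintro ⟨a', ha', ha'1, h⟩
      have h3 : a' = a := hinj a' ha' a ha h
      subst h3
      exact le_rfl
    · exact le_iSup (fun a' : {a' : G // a' ∈ A ∧ a' ≠ 1 ∧ π a' = π a} => (θ (a' : G)).map π)
        ⟨a, ha, ha1, rfl⟩
  have hA' : IsElementaryAbelian p (A.map π) := by
    refine ⟨⟨⟨?_⟩⟩, ?_⟩
    · rintro ⟨_, ⟨x, hx, rfl⟩⟩ ⟨_, ⟨y, hy, rfl⟩⟩
      apply Subtype.ext
      change π x * π y = π y * π x
      rw [← map_mul, ← map_mul]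
      congr 1
      have h3 := hA.1.is_comm.comm (⟨x, hx⟩ : A) ⟨y, hy⟩
      exact congrArg Subtype.val h3
    · rintro _ ⟨x, hx, rfl⟩
      rw [← map_pow, hA.2 x hx, map_one]
  have hA'3 : p ^ 3 ≤ Nat.card (A.map π) := by
    refine hA3.trans ?_
    refine Nat.card_le_card_of_injective
      (fun a : A => (⟨π a, Subgroup.mem_map_of_mem π a.2⟩ : A.map π)) ?_
    intro a b h
    have h1 : π a = π b := congrArg Subtype.val h
    exact Subtype.ext (hinj a a.2 b b.2 h1)
  have hθ' : IsSignalizerFunctor p (A.map π) θ' := by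
    refine ⟨?_, ?_, ?_, ?_⟩
    · rintro _ ⟨a, ha, rfl⟩ ha1
      have ha1' : a ≠ 1 := fun h => ha1 (by rw [h, map_one])
      rw [hθ'eq a ha ha1']
      rintro _ ⟨t, ht, rfl⟩
      have h1 := hθ.1 a ha ha1' ht
      rw [Subgroup.mem_centralizer_singleton_iff] at h1 ⊢
      rw [← map_mul, ← map_mul, h1]
    · rintro _ ⟨a, ha, rfl⟩ ha1
      have ha1' : a ≠ 1 := fun h => ha1 (by rw [h, map_one])
      rw [hθ'eq a ha ha1']
      exact fun h => hθ.2.1 a ha ha1' (h.trans (Subgroup.card_map_dvd _ _))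
    · rintro _ ⟨a, ha, rfl⟩ ha1 _ ⟨b, hb, rfl⟩ x hx
      have ha1' : a ≠ 1 := fun h => ha1 (by rw [h, map_one])
      rw [hθ'eq a ha ha1'] at hx ⊢
      obtain ⟨t, ht, rfl⟩ := hx
      exact ⟨b * t * b⁻¹, hθ.2.2.1 a ha ha1' b hb t ht, by simp⟩
    · rintro _ ⟨a, ha, rfl⟩ ha1 _ ⟨b, hb, rfl⟩ hb1
      have ha1' : a ≠ 1 := fun h => ha1 (by rw [h, map_one])
      have hb1' : b ≠ 1 := fun h => hb1 (by rw [h, map_one])
      rw [hθ'eq a ha ha1', hθ'eq b hb hb1']
      exact Cfsg.Agent.S1281.result p A hA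
        (le_trans (Nat.pow_le_pow_right hp.pos (by norm_num)) hA3) θ hθs N hNp a b ha ha1' hb hb1'
  have hcl : signalizerClosure (A.map π) θ' = (signalizerClosure A θ).map π := by
    apply le_antisymm
    · refine iSup_le ?_
      rintro ⟨_, ⟨a, ha, rfl⟩, ha1⟩
      have ha1' : a ≠ 1 := fun h => ha1 (by rw [h, map_one])
      change θ' (π a) ≤ _
      rw [hθ'eq a ha ha1']
      exact Subgroup.map_mono (lc_theta_le_closure ha ha1')
    · rw [signalizerClosure, Subgroup.map_iSup]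
      refine iSup_le ?_
      rintro ⟨a, ha, ha1⟩
      have hπa1 : π a ≠ 1 := fun h => ha1 (hAN a ha h)
      change (θ a).map π ≤ _
      rw [← hθ'eq a ha ha1]
      exact lc_theta_le_closure (A := A.map π) (θ := θ') (Subgroup.mem_map_of_mem π ha) hπa1
  have hcard : Nat.card ((signalizerClosure A θ).map π) < n := by
    rw [← hn]
    have := Fintype.ofFinite (signalizerClosure A θ)
    have := Fintype.ofFinite ((signalizerClosure A θ).map π)
    rw [Nat.card_eq_fintype_card, Nat.card_eq_fintype_card]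
    refine Fintype.card_lt_of_surjective_not_injective (π.subgroupMap (signalizerClosure A θ))
      (π.subgroupMap_surjective _) ?_
    intro hinj'
    obtain ⟨⟨x, hxN⟩, hx1⟩ := (Subgroup.ne_bot_iff_exists_ne_one).mp hN
    have h1 : π.subgroupMap (signalizerClosure A θ) ⟨x, hNW hxN⟩ =
        π.subgroupMap (signalizerClosure A θ) 1 := by
      apply Subtype.ext
      change π x = π 1
      rw [map_one]; exact (QuotientGroup.eq_one_iff x).mpr hxN
    have h2 := hinj' h1
    have h3 : x = 1 := congrArg Subtype.val h2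
    exact hx1 (Subtype.ext h3)
  have hsolv' : Group.IsSolvable (signalizerClosure (A.map π) θ') := by
    rw [hcl]
    exact Group.isSolvable_of_surjective (f := π.subgroupMap (signalizerClosure A θ))
      (π.subgroupMap_surjective _)
  have hp' : ¬ p ∣ Nat.card (signalizerClosure (A.map π) θ') := by
    rw [hcl]
    exact fun h => hWp (h.trans (Subgroup.card_map_dvd _ _))
  have key := IH _ hcard (G ⧸ N) p (A.map π) hA' hA'3 θ' hθ' hsolv' hp' (by rw [hcl])
  intro a ha ha1 x hx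
  have h1 : π x ∈ signalizerClosure (A.map π) θ' ⊓ Subgroup.centralizer {π a} := by
    refine ⟨?_, ?_⟩
    · rw [hcl]; exact Subgroup.mem_map_of_mem π hx.1
    · have h2 : x ∈ Subgroup.centralizer {a} := hx.2
      have h3 : π x ∈ Subgroup.centralizer {π a} := by
        rw [Subgroup.mem_centralizer_singleton_iff] at h2 ⊢
        rw [← map_mul, ← map_mul, h2]
      exact h3
  have hπa1 : π a ≠ 1 := fun h => ha1 (hAN a ha h)
  have h2 := key (π a) (Subgroup.mem_map_of_mem π ha) hπa1 h1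
  rw [hθ'eq a ha ha1] at h2
  obtain ⟨t, ht, hte⟩ := h2
  exact ⟨t, ht, QuotientGroup.eq.mp hte⟩

theorem lc_subgroup_transfer {G : Type u} [Group G] [Finite G] (p : ℕ)
    (A : Subgroup G) (hA : IsElementaryAbelian p A) (θ : G → Subgroup G)
    (hθ : IsSignalizerFunctor p A θ) (H : Subgroup G) (hWH : signalizerClosure A θ ≤ H)
    (hAH : A ≤ H) :
    IsElementaryAbelian p (A.subgroupOf H) ∧ Nat.card (A.subgroupOf H) = Nat.card A ∧
    IsSignalizerFunctor p (A.subgroupOf H) (fun h : H => (θ h).subgroupOf H) ∧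
    signalizerClosure (A.subgroupOf H) (fun h : H => (θ h).subgroupOf H) =
      (signalizerClosure A θ).subgroupOf H := by
  refine ⟨⟨⟨⟨?_⟩⟩, ?_⟩, ?_, ?_, ?_⟩
  · rintro ⟨x, hx⟩ ⟨y, hy⟩
    apply Subtype.ext
    apply Subtype.ext
    have h3 := hA.1.is_comm.comm (⟨x.1, hx⟩ : A) ⟨y.1, hy⟩
    have h4 : (x : G) * (y : G) = (y : G) * (x : G) := congrArg Subtype.val h3
    exact h4
  · intro x hx
    apply Subtype.ext
    rw [Subgroup.coe_pow, Subgroup.coe_one]
    exact hA.2 x.1 hx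
  · exact Nat.card_congr (Subgroup.subgroupOfEquivOfLe hAH).toEquiv
  · refine ⟨?_, ?_, ?_, ?_⟩
    · intro a ha ha1 x hx
      have ha1' : (a : G) ≠ 1 := fun h => ha1 (Subtype.ext h)
      have h1 := hθ.1 a.1 ha ha1' hx
      rw [Subgroup.mem_centralizer_singleton_iff] at h1 ⊢
      exact Subtype.ext h1
    · intro a ha ha1
      have ha1' : (a : G) ≠ 1 := fun h => ha1 (Subtype.ext h)
      have hle : θ a.1 ≤ H := (lc_theta_le_closure (A := A) (a := (a : G)) ha ha1').trans hWH
      rw [Nat.card_congr (Subgroup.subgroupOfEquivOfLe hle).toEquiv]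
      exact hθ.2.1 a.1 ha ha1'
    · intro a ha ha1 b hb x hx
      have ha1' : (a : G) ≠ 1 := fun h => ha1 (Subtype.ext h)
      exact hθ.2.2.1 a.1 ha ha1' b.1 hb x.1 hx
    · intro a ha ha1 b hb hb1 x hx
      have ha1' : (a : G) ≠ 1 := fun h => ha1 (Subtype.ext h)
      have hb1' : (b : G) ≠ 1 := fun h => hb1 (Subtype.ext h)
      have h2 : x ∈ Subgroup.centralizer {b} := hx.2
      rw [Subgroup.mem_centralizer_singleton_iff] at h2
      have h3 : (x : G) ∈ Subgroup.centralizer {(b : G)} := by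
        rw [Subgroup.mem_centralizer_singleton_iff]
        exact congrArg Subtype.val h2
      exact hθ.2.2.2 a.1 ha ha1' b.1 hb hb1' ⟨hx.1, h3⟩
  · apply le_antisymm
    · refine iSup_le ?_
      rintro ⟨a, ha, ha1⟩ x hx
      have ha1' : (a : G) ≠ 1 := fun h => ha1 (Subtype.ext h)
      exact lc_theta_le_closure (A := A) (a := (a : G)) ha ha1' hx
    · intro y hy
      have h1 : signalizerClosure A θ ≤
          (signalizerClosure (A.subgroupOf H) (fun h : H => (θ h).subgroupOf H)).map H.subtype := by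
        refine iSup_le ?_
        rintro ⟨c, hc, hc1⟩ x hx
        have hxH : x ∈ H := hWH (lc_theta_le_closure hc hc1 hx)
        refine ⟨⟨x, hxH⟩, ?_, rfl⟩
        refine lc_theta_le_closure (A := A.subgroupOf H) (θ := fun h : H => (θ h).subgroupOf H)
          (a := ⟨c, hAH hc⟩) ?_ ?_ ?_
        · exact hc
        · exact fun h => hc1 (congrArg Subtype.val h)
        · exact hx
      obtain ⟨z, hz, hze⟩ := h1 hy
      have h3 : z = y := Subtype.ext hze
      rw [← h3]; exact hz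

theorem lc_core (n : ℕ) (IH : ∀ m < n, LCProp.{u} m) {G : Type u} [Group G] [Finite G]
    (p : ℕ) [Fact p.Prime] (A : Subgroup G) (hA : IsElementaryAbelian p A)
    (hA3 : p ^ 3 ≤ Nat.card A) (θ : G → Subgroup G) (hθ : IsSignalizerFunctor p A θ)
    (hWs : Group.IsSolvable (signalizerClosure A θ))
    (hWp : ¬ p ∣ Nat.card (signalizerClosure A θ)) (hn : Nat.card (signalizerClosure A θ) = n)
    (htop : signalizerClosure A θ ⊔ A = ⊤) :
    ∀ a ∈ A, a ≠ 1 → signalizerClosure A θ ⊓ Subgroup.centralizer {a} ≤ θ a := by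
  classical
  have hp : p.Prime := Fact.out
  intro a ha ha1
  by_cases hWbot : signalizerClosure A θ = ⊥
  · rw [hWbot]; exact inf_le_left.trans bot_le
  have hθs := lc_solvable hθ hWs
  have hA2 : p ^ 2 ≤ Nat.card A := le_trans (Nat.pow_le_pow_right hp.pos (by norm_num)) hA3
  have hWn : (signalizerClosure A θ).Normal := by
    rw [← Subgroup.normalizer_eq_top_iff, eq_top_iff, ← htop]
    exact sup_le Subgroup.le_normalizer
      (Cfsg.Agent.Lib.Helper22.le_normalizer_of_conj_mem (lc_closure_conj_mem hθ))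
  obtain ⟨r, hr, V, hVn, hVW, hVne, hVpow⟩ :=
    lc_exists_normal_pow_mem (signalizerClosure A θ) hWs hWbot
  have hθV : IsSignalizerFunctor p A (fun c => θ c ⊓ V) := by
    refine ⟨?_, ?_, ?_, ?_⟩
    · intro c hc hc1
      exact inf_le_left.trans (hθ.1 c hc hc1)
    · intro c hc hc1 h
      exact hθ.2.1 c hc hc1 (h.trans (Subgroup.card_dvd_of_le inf_le_left))
    · intro c hc hc1 b hb x hx
      exact ⟨hθ.2.2.1 c hc hc1 b hb x hx.1, hVn.conj_mem x hx.2 b⟩
    · intro c hc hc1 b hb hb1 x hx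
      exact ⟨hθ.2.2.2 c hc hc1 b hb hb1 ⟨hx.1.1, hx.2⟩, hx.1.2⟩
  set V₀ := signalizerClosure A (fun c => θ c ⊓ V) with hV₀
  have hV₀V : V₀ ≤ V := iSup_le fun c => inf_le_right
  have hVlt : Nat.card V < Nat.card (signalizerClosure A θ) := by
    by_contra hcon
    exact hVne (Subgroup.eq_of_le_of_card_ge hVW (not_lt.mp hcon))
  have hV₀lt : Nat.card V₀ < n := by
    rw [← hn]; exact lt_of_le_of_lt (Subgroup.card_le_of_le hV₀V) hVlt
  have hV₀W : V₀ ≤ signalizerClosure A θ := hV₀V.trans hVW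
  have hV₀s : Group.IsSolvable V₀ :=
    Group.isSolvable_of_isSolvable_injective (Subgroup.inclusion_injective hV₀W)
  have hV₀p : ¬ p ∣ Nat.card V₀ := fun h => hWp (h.trans (Subgroup.card_dvd_of_le hV₀W))
  have hV₀c := IH _ hV₀lt G p A hA hA3 (fun c => θ c ⊓ V) hθV hV₀s hV₀p rfl
  have hV₀n : V₀.Normal := by
    rw [← Subgroup.normalizer_eq_top_iff, eq_top_iff, ← htop]
    refine sup_le ?_ (Cfsg.Agent.Lib.Helper22.le_normalizer_of_conj_mem (lc_closure_conj_mem hθV))
    refine iSup_le ?_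
    rintro ⟨c, hc, hc1⟩
    change θ c ≤ _
    have hfam : θ c ∈ signalizerFamily p A θ :=
      ⟨hθs.2 c hc hc1, hθ.2.1 c hc hc1, hθ.2.2.1 c hc hc1,
        fun b hb hb1 => hθ.2.2.2 c hc hc1 b hb hb1⟩
    have hgen := Cfsg.Agent.S1331.result p A hA hA3 θ hθs (θ c) hfam A le_rfl hA2
    rw [hgen]
    refine iSup_le ?_
    rintro ⟨D, hDA, hDidx⟩
    have hD2 : p ^ 2 ≤ Nat.card D := lc_pow_le_card_of_relIndex hp.pos hDA hDidx.le hA3
    have hVD : V₀ = ⨆ d : {d : G // d ∈ D ∧ d ≠ 1}, θ (d : G) ⊓ V := by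
      apply le_antisymm
      · refine iSup_le ?_
        rintro ⟨e, he, he1⟩
        change θ e ⊓ V ≤ _
        have hfam' : θ e ⊓ V ∈ signalizerFamily p A θ :=
          ⟨Group.isSolvable_of_isSolvable_injective
              (Subgroup.inclusion_injective ((inf_le_left : θ e ⊓ V ≤ θ e).trans
                (lc_theta_le_closure he he1))),
            hθV.2.1 e he he1, hθV.2.2.1 e he he1,
            fun b hb hb1 x hx => hθ.2.2.2 e he he1 b hb hb1 ⟨hx.1.1, hx.2⟩⟩
        have hgen' := Cfsg.Agent.S1331.result p A hA hA3 θ hθs (θ e ⊓ V) hfam' D hDA hD2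
        rw [hgen']
        refine iSup_le ?_
        rintro ⟨E, hED, hEidx⟩
        obtain ⟨d, hdE, hd1⟩ := lc_exists_ne_one hp
          (lc_pow_le_card_of_relIndex hp.pos hED hEidx.le hD2)
        refine le_trans ?_ (le_iSup (fun d : {d : G // d ∈ D ∧ d ≠ 1} => θ (d : G) ⊓ V)
          ⟨d, hED hdE, hd1⟩)
        intro x hx
        refine ⟨?_, hx.1.2⟩
        have h5 : x ∈ ⨅ a : {a : G // a ∈ E ∧ a ≠ 1}, θ (a : G) := hx.2
        exact (Subgroup.mem_iInf.mp h5) ⟨d, hdE, hd1⟩
      · refine iSup_le ?_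
        rintro ⟨d, hdD, hd1⟩
        exact le_iSup (fun c : {c : G // c ∈ A ∧ c ≠ 1} => θ (c : G) ⊓ V) ⟨d, hDA hdD, hd1⟩
    apply Cfsg.Agent.Lib.Helper22.le_normalizer_of_conj_mem
    intro y hy u hu
    rw [hVD] at hu ⊢
    refine lc_conj_mem_iSup _ y ?_ u hu
    rintro ⟨d, hdD, hd1⟩ x hx
    have h5 : y ∈ ⨅ a : {a : G // a ∈ D ∧ a ≠ 1}, θ (a : G) := hy.2
    have hyd : y ∈ θ d := (Subgroup.mem_iInf.mp h5) ⟨d, hdD, hd1⟩
    exact ⟨(θ d).mul_mem ((θ d).mul_mem hyd hx.1) ((θ d).inv_mem hyd), hVn.conj_mem x hx.2 y⟩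
  by_cases hV₀bot : V₀ = ⊥
  · have hr' : ∀ c ∈ A, c ≠ 1 → IsPGroup r (θ c) := by
      intro c hc hc1 x
      refine ⟨1, ?_⟩
      have h1 : (x : G) ^ r ∈ V₀ :=
        (le_iSup (fun c : {c : G // c ∈ A ∧ c ≠ 1} => θ (c : G) ⊓ V) ⟨c, hc, hc1⟩)
          ⟨pow_mem x.2 r, hVpow x (lc_theta_le_closure hc hc1 x.2)⟩
      rw [hV₀bot, Subgroup.mem_bot] at h1
      rw [pow_one]
      exact Subtype.ext h1
    have : Fact r.Prime := ⟨hr⟩
    obtain ⟨-, X, -, -, hX⟩ := Cfsg.Agent.S1285.result p A hA hA3 θ hθs r hr'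
    have hWX : signalizerClosure A θ ≤ X := by
      refine iSup_le ?_
      rintro ⟨c, hc, hc1⟩
      change θ c ≤ X
      rw [← hX c hc hc1]; exact inf_le_left
    calc signalizerClosure A θ ⊓ Subgroup.centralizer {a}
        ≤ X ⊓ Subgroup.centralizer {a} := inf_le_inf_right _ hWX
      _ = θ a := hX a ha ha1
  · intro x hx
    have := hV₀n
    obtain ⟨t, ht, htx⟩ :=
      lc_quotient n IH p A hA hA3 θ hθ hWs hWp hn V₀ hV₀W hV₀bot a ha ha1 x hx
    have h1 : t⁻¹ * x ∈ V₀ ⊓ Subgroup.centralizer {a} :=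
      ⟨htx, Subgroup.mul_mem _ (Subgroup.inv_mem _ (hθ.1 a ha ha1 ht)) hx.2⟩
    have h2 := (hV₀c a ha ha1 h1).1
    have h3 : x = t * (t⁻¹ * x) := by group
    rw [h3]
    exact (θ a).mul_mem ht h2

theorem lc_all : ∀ n, LCProp.{u} n := by
  intro n
  induction n using Nat.strong_induction_on with
  | _ n IH =>
    intro G _ _ p _ A hA hA3 θ hθ hWs hWp hn a ha ha1
    have hWH : signalizerClosure A θ ≤ signalizerClosure A θ ⊔ A := le_sup_left
    have hAH : A ≤ signalizerClosure A θ ⊔ A := le_sup_right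
    obtain ⟨hA', hcardA', hθ', hcl'⟩ :=
      lc_subgroup_transfer p A hA θ hθ (signalizerClosure A θ ⊔ A) hWH hAH
    have hWe : Nat.card ((signalizerClosure A θ).subgroupOf (signalizerClosure A θ ⊔ A)) =
        Nat.card (signalizerClosure A θ) :=
      Nat.card_congr (Subgroup.subgroupOfEquivOfLe hWH).toEquiv
    have key := lc_core n IH (G := ↥(signalizerClosure A θ ⊔ A)) p
      (A.subgroupOf (signalizerClosure A θ ⊔ A)) hA' (by rw [hcardA']; exact hA3)
      (fun h => (θ h).subgroupOf (signalizerClosure A θ ⊔ A)) hθ'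
      (by
        rw [hcl']
        exact Group.isSolvable_of_isSolvable_injective
          (f := (Subgroup.subgroupOfEquivOfLe hWH).toMonoidHom)
          (Subgroup.subgroupOfEquivOfLe hWH).injective)
      (by rw [hcl', hWe]; exact hWp) (by rw [hcl', hWe]; exact hn)
      (by rw [hcl', ← Subgroup.subgroupOf_sup hWH hAH]; exact Subgroup.subgroupOf_self _)
      ⟨a, hAH ha⟩ ha (fun h => ha1 (congrArg Subtype.val h))
    intro x hx
    have h1 : (⟨x, hWH hx.1⟩ : ↥(signalizerClosure A θ ⊔ A)) ∈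
        signalizerClosure (A.subgroupOf (signalizerClosure A θ ⊔ A))
          (fun h => (θ h).subgroupOf (signalizerClosure A θ ⊔ A)) ⊓
        Subgroup.centralizer {(⟨a, hAH ha⟩ : ↥(signalizerClosure A θ ⊔ A))} := by
      refine ⟨?_, ?_⟩
      · rw [hcl']; exact hx.1
      · have h2 : x ∈ Subgroup.centralizer {a} := hx.2
        have h3 : (⟨x, hWH hx.1⟩ : ↥(signalizerClosure A θ ⊔ A)) ∈
            Subgroup.centralizer {(⟨a, hAH ha⟩ : ↥(signalizerClosure A θ ⊔ A))} := by
          rw [Subgroup.mem_centralizer_singleton_iff] at h2 ⊢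
          exact Subtype.ext h2
        exact h3
    exact key h1

/-- **Local completeness.** If the closure of an `A`-signalizer functor `θ` (`A` elementary
abelian of rank at least 3) is a solvable group of order prime to `p`, then `θ` is complete: the
closure `W` satisfies `W ⊓ C_G(a) ≤ θ a` (hence `= θ a`) for every non-identity `a ∈ A`. -/
theorem signalizer_closure_complete {G : Type u} [Group G] [Finite G] (p : ℕ) [Fact p.Prime]
    (A : Subgroup G) (hA : IsElementaryAbelian p A) (hA3 : p ^ 3 ≤ Nat.card A)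
    (θ : G → Subgroup G) (hθ : IsSignalizerFunctor p A θ)
    (hWs : Group.IsSolvable (signalizerClosure A θ))
    (hWp : ¬ p ∣ Nat.card (signalizerClosure A θ)) :
    ∀ a ∈ A, a ≠ 1 → signalizerClosure A θ ⊓ Subgroup.centralizer {a} ≤ θ a :=
  lc_all _ G p A hA hA3 θ hθ hWs hWp rfl

end Cfsg.Agent.Lib.Helper61
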